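import Mathlib
import Cfsg.Agent.TcData.Ly.Fix3.N3C0

set_option autoImplicit false
set_option Elab.async false
set_option maxRecDepth 100000
set_option linter.all false
set_option maxHeartbeats 0

namespace Cfsg.Agent.TcData.Ly.Fix3.N3

open Cfsg.Agent.Lib.TcFacts

theorem c0 : Block (fun _ => true) T 0 64 0 := b0

theorem c1 : Block (fun _ => true) T 0 128 0 :=
  block_comb c0 b1 (Nat.zero_le _) (Nat.le_of_ble_eq_true rfl) rfl

theorem c2 : Block (fun _ => true) T 0 192 0 :=
  block_comb c1 b2 (Nat.zero_le _) (Nat.le_of_ble_eq_true rfl) rfl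

theorem c3 : Block (fun _ => true) T 0 256 0 :=
  block_comb c2 b3 (Nat.zero_le _) (Nat.le_of_ble_eq_true rfl) rfl

theorem c4 : Block (fun _ => true) T 0 320 0 :=
  block_comb c3 b4 (Nat.zero_le _) (Nat.le_of_ble_eq_true rfl) rfl

theorem c5 : Block (fun _ => true) T 0 384 0 :=
  block_comb c4 b5 (Nat.zero_le _) (Nat.le_of_ble_eq_true rfl) rfl

theorem c6 : Block (fun _ => true) T 0 448 0 :=
  block_comb c5 b6 (Nat.zero_le _) (Nat.le_of_ble_eq_true rfl) rfl

theorem c7 : Block (fun _ => true) T 0 512 0 :=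
  block_comb c6 b7 (Nat.zero_le _) (Nat.le_of_ble_eq_true rfl) rfl

theorem c8 : Block (fun _ => true) T 0 576 0 :=
  block_comb c7 b8 (Nat.zero_le _) (Nat.le_of_ble_eq_true rfl) rfl

theorem c9 : Block (fun _ => true) T 0 640 0 :=
  block_comb c8 b9 (Nat.zero_le _) (Nat.le_of_ble_eq_true rfl) rfl

theorem c10 : Block (fun _ => true) T 0 704 1 :=
  block_comb c9 b10 (Nat.zero_le _) (Nat.le_of_ble_eq_true rfl) rfl

theorem c11 : Block (fun _ => true) T 0 768 1 :=
  block_comb c10 b11 (Nat.zero_le _) (Nat.le_of_ble_eq_true rfl) rfl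

theorem c12 : Block (fun _ => true) T 0 832 2 :=
  block_comb c11 b12 (Nat.zero_le _) (Nat.le_of_ble_eq_true rfl) rfl

theorem c13 : Block (fun _ => true) T 0 896 2 :=
  block_comb c12 b13 (Nat.zero_le _) (Nat.le_of_ble_eq_true rfl) rfl

theorem c14 : Block (fun _ => true) T 0 960 2 :=
  block_comb c13 b14 (Nat.zero_le _) (Nat.le_of_ble_eq_true rfl) rfl

theorem c15 : Block (fun _ => true) T 0 1024 2 :=
  block_comb c14 b15 (Nat.zero_le _) (Nat.le_of_ble_eq_true rfl) rfl

theorem all : Block (fun _ => true) T 0 1024 2 := c15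

end Cfsg.Agent.TcData.Ly.Fix3.N3
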