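import Mathlib
import Cfsg.Agent.TcData.Ly.Fix3.N2D

set_option autoImplicit false
set_option Elab.async false
set_option maxRecDepth 100000
set_option linter.all false
set_option maxHeartbeats 0

namespace Cfsg.Agent.TcData.Ly.Fix3.N2

open Cfsg.Agent.Lib.TcFacts

theorem b30 : Block (fun _ => true) T 1920 1984 1 :=
  block_of_check (k := 6) rfl (by decide +kernel)

theorem b31 : Block (fun _ => true) T 1984 2048 0 :=
  block_of_check (k := 6) rfl (by decide +kernel)

theorem b32 : Block (fun _ => true) T 2048 2112 0 :=
  block_of_check (k := 6) rfl (by decide +kernel)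

theorem b33 : Block (fun _ => true) T 2112 2176 1 :=
  block_of_check (k := 6) rfl (by decide +kernel)

theorem b34 : Block (fun _ => true) T 2176 2240 0 :=
  block_of_check (k := 6) rfl (by decide +kernel)

theorem b35 : Block (fun _ => true) T 2240 2304 3 :=
  block_of_check (k := 6) rfl (by decide +kernel)

theorem b36 : Block (fun _ => true) T 2304 2368 1 :=
  block_of_check (k := 6) rfl (by decide +kernel)

theorem b37 : Block (fun _ => true) T 2368 2432 0 :=
  block_of_check (k := 6) rfl (by decide +kernel)

theorem b38 : Block (fun _ => true) T 2432 2496 0 :=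
  block_of_check (k := 6) rfl (by decide +kernel)

theorem b39 : Block (fun _ => true) T 2496 2560 1 :=
  block_of_check (k := 6) rfl (by decide +kernel)

theorem b40 : Block (fun _ => true) T 2560 2624 0 :=
  block_of_check (k := 6) rfl (by decide +kernel)

theorem b41 : Block (fun _ => true) T 2624 2688 0 :=
  block_of_check (k := 6) rfl (by decide +kernel)

theorem b42 : Block (fun _ => true) T 2688 2752 0 :=
  block_of_check (k := 6) rfl (by decide +kernel)

theorem b43 : Block (fun _ => true) T 2752 2816 0 :=
  block_of_check (k := 6) rfl (by decide +kernel)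

theorem b44 : Block (fun _ => true) T 2816 2880 1 :=
  block_of_check (k := 6) rfl (by decide +kernel)

theorem b45 : Block (fun _ => true) T 2880 2944 1 :=
  block_of_check (k := 6) rfl (by decide +kernel)

theorem b46 : Block (fun _ => true) T 2944 3008 1 :=
  block_of_check (k := 6) rfl (by decide +kernel)

theorem b47 : Block (fun _ => true) T 3008 3072 0 :=
  block_of_check (k := 6) rfl (by decide +kernel)

theorem b48 : Block (fun _ => true) T 3072 3136 3 :=
  block_of_check (k := 6) rfl (by decide +kernel)

theorem b49 : Block (fun _ => true) T 3136 3200 0 :=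
  block_of_check (k := 6) rfl (by decide +kernel)

theorem b50 : Block (fun _ => true) T 3200 3264 0 :=
  block_of_check (k := 6) rfl (by decide +kernel)

theorem b51 : Block (fun _ => true) T 3264 3328 0 :=
  block_of_check (k := 6) rfl (by decide +kernel)

theorem b52 : Block (fun _ => true) T 3328 3392 2 :=
  block_of_check (k := 6) rfl (by decide +kernel)

theorem b53 : Block (fun _ => true) T 3392 3456 0 :=
  block_of_check (k := 6) rfl (by decide +kernel)

theorem b54 : Block (fun _ => true) T 3456 3520 2 :=
  block_of_check (k := 6) rfl (by decide +kernel)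

theorem b55 : Block (fun _ => true) T 3520 3584 1 :=
  block_of_check (k := 6) rfl (by decide +kernel)

theorem b56 : Block (fun _ => true) T 3584 3648 1 :=
  block_of_check (k := 6) rfl (by decide +kernel)

theorem b57 : Block (fun _ => true) T 3648 3712 0 :=
  block_of_check (k := 6) rfl (by decide +kernel)

theorem b58 : Block (fun _ => true) T 3712 3776 0 :=
  block_of_check (k := 6) rfl (by decide +kernel)

theorem b59 : Block (fun _ => true) T 3776 3840 1 :=
  block_of_check (k := 6) rfl (by decide +kernel)

end Cfsg.Agent.TcData.Ly.Fix3.N2
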