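import Mathlib
import Cfsg.Agent.TcData.Ly.Fix3.N2D

set_option autoImplicit false
set_option Elab.async false
set_option maxRecDepth 100000
set_option linter.all false
set_option maxHeartbeats 0

namespace Cfsg.Agent.TcData.Ly.Fix3.N2

open Cfsg.Agent.Lib.TcFacts

theorem b60 : Block (fun _ => true) T 3840 3904 0 :=
  block_of_check (k := 6) rfl (by decide +kernel)

theorem b61 : Block (fun _ => true) T 3904 3968 0 :=
  block_of_check (k := 6) rfl (by decide +kernel)

theorem b62 : Block (fun _ => true) T 3968 4032 0 :=
  block_of_check (k := 6) rfl (by decide +kernel)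

theorem b63 : Block (fun _ => true) T 4032 4096 0 :=
  block_of_check (k := 6) rfl (by decide +kernel)

theorem b64 : Block (fun _ => true) T 4096 4160 1 :=
  block_of_check (k := 6) rfl (by decide +kernel)

theorem b65 : Block (fun _ => true) T 4160 4224 0 :=
  block_of_check (k := 6) rfl (by decide +kernel)

theorem b66 : Block (fun _ => true) T 4224 4288 0 :=
  block_of_check (k := 6) rfl (by decide +kernel)

theorem b67 : Block (fun _ => true) T 4288 4352 0 :=
  block_of_check (k := 6) rfl (by decide +kernel)

theorem b68 : Block (fun _ => true) T 4352 4416 0 :=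
  block_of_check (k := 6) rfl (by decide +kernel)

theorem b69 : Block (fun _ => true) T 4416 4480 2 :=
  block_of_check (k := 6) rfl (by decide +kernel)

theorem b70 : Block (fun _ => true) T 4480 4544 1 :=
  block_of_check (k := 6) rfl (by decide +kernel)

theorem b71 : Block (fun _ => true) T 4544 4608 2 :=
  block_of_check (k := 6) rfl (by decide +kernel)

theorem b72 : Block (fun _ => true) T 4608 4672 0 :=
  block_of_check (k := 6) rfl (by decide +kernel)

theorem b73 : Block (fun _ => true) T 4672 4736 1 :=
  block_of_check (k := 6) rfl (by decide +kernel)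

theorem b74 : Block (fun _ => true) T 4736 4800 0 :=
  block_of_check (k := 6) rfl (by decide +kernel)

theorem b75 : Block (fun _ => true) T 4800 4864 0 :=
  block_of_check (k := 6) rfl (by decide +kernel)

theorem b76 : Block (fun _ => true) T 4864 4928 0 :=
  block_of_check (k := 6) rfl (by decide +kernel)

theorem b77 : Block (fun _ => true) T 4928 4992 2 :=
  block_of_check (k := 6) rfl (by decide +kernel)

theorem b78 : Block (fun _ => true) T 4992 5056 1 :=
  block_of_check (k := 6) rfl (by decide +kernel)

theorem b79 : Block (fun _ => true) T 5056 5120 2 :=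
  block_of_check (k := 6) rfl (by decide +kernel)

theorem b80 : Block (fun _ => true) T 5120 5184 1 :=
  block_of_check (k := 6) rfl (by decide +kernel)

theorem b81 : Block (fun _ => true) T 5184 5248 1 :=
  block_of_check (k := 6) rfl (by decide +kernel)

theorem b82 : Block (fun _ => true) T 5248 5312 0 :=
  block_of_check (k := 6) rfl (by decide +kernel)

theorem b83 : Block (fun _ => true) T 5312 5376 1 :=
  block_of_check (k := 6) rfl (by decide +kernel)

theorem b84 : Block (fun _ => true) T 5376 5440 1 :=
  block_of_check (k := 6) rfl (by decide +kernel)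

theorem b85 : Block (fun _ => true) T 5440 5504 0 :=
  block_of_check (k := 6) rfl (by decide +kernel)

theorem b86 : Block (fun _ => true) T 5504 5568 2 :=
  block_of_check (k := 6) rfl (by decide +kernel)

theorem b87 : Block (fun _ => true) T 5568 5632 2 :=
  block_of_check (k := 6) rfl (by decide +kernel)

theorem b88 : Block (fun _ => true) T 5632 5696 1 :=
  block_of_check (k := 6) rfl (by decide +kernel)

theorem b89 : Block (fun _ => true) T 5696 5760 1 :=
  block_of_check (k := 6) rfl (by decide +kernel)

end Cfsg.Agent.TcData.Ly.Fix3.N2
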