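import Mathlib
import Cfsg.Agent.TcData.Ly.Fix3.N2D

set_option autoImplicit false
set_option Elab.async false
set_option maxRecDepth 100000
set_option linter.all false
set_option maxHeartbeats 0

namespace Cfsg.Agent.TcData.Ly.Fix3.N2

open Cfsg.Agent.Lib.TcFacts

theorem b90 : Block (fun _ => true) T 5760 5824 0 :=
  block_of_check (k := 6) rfl (by decide +kernel)

theorem b91 : Block (fun _ => true) T 5824 5888 0 :=
  block_of_check (k := 6) rfl (by decide +kernel)

theorem b92 : Block (fun _ => true) T 5888 5952 2 :=
  block_of_check (k := 6) rfl (by decide +kernel)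

theorem b93 : Block (fun _ => true) T 5952 6016 1 :=
  block_of_check (k := 6) rfl (by decide +kernel)

theorem b94 : Block (fun _ => true) T 6016 6080 0 :=
  block_of_check (k := 6) rfl (by decide +kernel)

end Cfsg.Agent.TcData.Ly.Fix3.N2
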