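import Mathlib
import Cfsg.Agent.Lib.LyDce.Fix3Defs
import Cfsg.Agent.TcData.Ly.Card.L4

set_option autoImplicit false
set_option Elab.async false
set_option maxRecDepth 100000
set_option linter.all false
set_option maxHeartbeats 0

namespace Cfsg.Agent.TcData.Ly.Fix3.N4

open Cfsg.Agent.Lib.TcFacts Cfsg.Agent.Lib.LyDce Cfsg.Agent.Lib.VecOrb Cfsg.Agent.TcData.Ly.Card.L4

/-- The rows which can be involutions. -/
noncomputable def T : ℕ → Bool :=
  cubeRow (fun i => rKey 112 (Tr.get TT i)) (fun i => rPar 112 (Tr.get TT i)) (fun i => rGen 112 (Tr.get TT i))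
    (fun i => rDep 112 (Tr.get TT i)) act v0 0 2880

end Cfsg.Agent.TcData.Ly.Fix3.N4
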