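import Mathlib
import Cfsg.Agent.TcData.Ly.Fix3.N4D

set_option autoImplicit false
set_option Elab.async false
set_option maxRecDepth 100000
set_option linter.all false
set_option maxHeartbeats 0

namespace Cfsg.Agent.TcData.Ly.Fix3.N4

open Cfsg.Agent.Lib.TcFacts

theorem b0 : Block (fun _ => true) T 0 64 0 :=
  block_of_check (k := 6) rfl (by decide +kernel)

theorem b1 : Block (fun _ => true) T 64 128 0 :=
  block_of_check (k := 6) rfl (by decide +kernel)

theorem b2 : Block (fun _ => true) T 128 192 0 :=
  block_of_check (k := 6) rfl (by decide +kernel)

theorem b3 : Block (fun _ => true) T 192 256 1 :=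
  block_of_check (k := 6) rfl (by decide +kernel)

theorem b4 : Block (fun _ => true) T 256 320 2 :=
  block_of_check (k := 6) rfl (by decide +kernel)

theorem b5 : Block (fun _ => true) T 320 384 1 :=
  block_of_check (k := 6) rfl (by decide +kernel)

theorem b6 : Block (fun _ => true) T 384 448 0 :=
  block_of_check (k := 6) rfl (by decide +kernel)

theorem b7 : Block (fun _ => true) T 448 512 0 :=
  block_of_check (k := 6) rfl (by decide +kernel)

theorem b8 : Block (fun _ => true) T 512 576 0 :=
  block_of_check (k := 6) rfl (by decide +kernel)

theorem b9 : Block (fun _ => true) T 576 640 0 :=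
  block_of_check (k := 6) rfl (by decide +kernel)

theorem b10 : Block (fun _ => true) T 640 704 0 :=
  block_of_check (k := 6) rfl (by decide +kernel)

theorem b11 : Block (fun _ => true) T 704 768 0 :=
  block_of_check (k := 6) rfl (by decide +kernel)

theorem b12 : Block (fun _ => true) T 768 832 2 :=
  block_of_check (k := 6) rfl (by decide +kernel)

theorem b13 : Block (fun _ => true) T 832 896 0 :=
  block_of_check (k := 6) rfl (by decide +kernel)

theorem b14 : Block (fun _ => true) T 896 960 2 :=
  block_of_check (k := 6) rfl (by decide +kernel)

theorem b15 : Block (fun _ => true) T 960 1024 0 :=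
  block_of_check (k := 6) rfl (by decide +kernel)

theorem b16 : Block (fun _ => true) T 1024 1088 0 :=
  block_of_check (k := 6) rfl (by decide +kernel)

theorem b17 : Block (fun _ => true) T 1088 1152 0 :=
  block_of_check (k := 6) rfl (by decide +kernel)

theorem b18 : Block (fun _ => true) T 1152 1216 0 :=
  block_of_check (k := 6) rfl (by decide +kernel)

theorem b19 : Block (fun _ => true) T 1216 1280 0 :=
  block_of_check (k := 6) rfl (by decide +kernel)

theorem b20 : Block (fun _ => true) T 1280 1344 0 :=
  block_of_check (k := 6) rfl (by decide +kernel)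

theorem b21 : Block (fun _ => true) T 1344 1408 1 :=
  block_of_check (k := 6) rfl (by decide +kernel)

theorem b22 : Block (fun _ => true) T 1408 1472 1 :=
  block_of_check (k := 6) rfl (by decide +kernel)

theorem b23 : Block (fun _ => true) T 1472 1536 2 :=
  block_of_check (k := 6) rfl (by decide +kernel)

theorem b24 : Block (fun _ => true) T 1536 1600 0 :=
  block_of_check (k := 6) rfl (by decide +kernel)

theorem b25 : Block (fun _ => true) T 1600 1664 0 :=
  block_of_check (k := 6) rfl (by decide +kernel)

theorem b26 : Block (fun _ => true) T 1664 1728 0 :=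
  block_of_check (k := 6) rfl (by decide +kernel)

theorem b27 : Block (fun _ => true) T 1728 1792 0 :=
  block_of_check (k := 6) rfl (by decide +kernel)

theorem b28 : Block (fun _ => true) T 1792 1856 0 :=
  block_of_check (k := 6) rfl (by decide +kernel)

theorem b29 : Block (fun _ => true) T 1856 1920 0 :=
  block_of_check (k := 6) rfl (by decide +kernel)

end Cfsg.Agent.TcData.Ly.Fix3.N4
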