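import Mathlib
import Cfsg.Agent.TcData.Ly.Fix3.N4D

set_option autoImplicit false
set_option Elab.async false
set_option maxRecDepth 100000
set_option linter.all false
set_option maxHeartbeats 0

namespace Cfsg.Agent.TcData.Ly.Fix3.N4

open Cfsg.Agent.Lib.TcFacts

theorem b30 : Block (fun _ => true) T 1920 1984 0 :=
  block_of_check (k := 6) rfl (by decide +kernel)

theorem b31 : Block (fun _ => true) T 1984 2048 0 :=
  block_of_check (k := 6) rfl (by decide +kernel)

theorem b32 : Block (fun _ => true) T 2048 2112 1 :=
  block_of_check (k := 6) rfl (by decide +kernel)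

theorem b33 : Block (fun _ => true) T 2112 2176 3 :=
  block_of_check (k := 6) rfl (by decide +kernel)

theorem b34 : Block (fun _ => true) T 2176 2240 0 :=
  block_of_check (k := 6) rfl (by decide +kernel)

theorem b35 : Block (fun _ => true) T 2240 2304 0 :=
  block_of_check (k := 6) rfl (by decide +kernel)

theorem b36 : Block (fun _ => true) T 2304 2368 0 :=
  block_of_check (k := 6) rfl (by decide +kernel)

theorem b37 : Block (fun _ => true) T 2368 2432 0 :=
  block_of_check (k := 6) rfl (by decide +kernel)

theorem b38 : Block (fun _ => true) T 2432 2496 0 :=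
  block_of_check (k := 6) rfl (by decide +kernel)

theorem b39 : Block (fun _ => true) T 2496 2560 0 :=
  block_of_check (k := 6) rfl (by decide +kernel)

theorem b40 : Block (fun _ => true) T 2560 2624 2 :=
  block_of_check (k := 6) rfl (by decide +kernel)

theorem b41 : Block (fun _ => true) T 2624 2688 2 :=
  block_of_check (k := 6) rfl (by decide +kernel)

theorem b42 : Block (fun _ => true) T 2688 2752 0 :=
  block_of_check (k := 6) rfl (by decide +kernel)

theorem b43 : Block (fun _ => true) T 2752 2816 0 :=
  block_of_check (k := 6) rfl (by decide +kernel)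

theorem b44 : Block (fun _ => true) T 2816 2880 0 :=
  block_of_check (k := 6) rfl (by decide +kernel)

end Cfsg.Agent.TcData.Ly.Fix3.N4
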